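import Cfsg.Agent.H763.RgdSimple
import Cfsg.Agent.KFacts.RgdFiltClass
import Cfsg.Agent.S0249
import Cfsg.Agent.S0270
import Cfsg.Agent.S0283

/-!
# Simplicity of the `p`-fusion systems of the linear, symplectic and unitary groups in characteristic `p` (helper763)
-/

set_option autoImplicit false
set_option linter.unusedSectionVars false

namespace Cfsg.Agent.H763.ClassSimple

open Cfsg Cfsg.FusionSystem Cfsg.Agent.H802 Cfsg.Agent.H763
open Cfsg.Agent.ChevalleyStructure.CoxeterGeom Cfsg.Agent.Tits.Roots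
open Cfsg.Agent.Nodes.Comb Cfsg.Agent.Nodes.Reps Cfsg.Agent.Nodes.WittRoot Cfsg.Agent.Nodes.BNOf
open Cfsg.Agent.Nodes.RGDLib Cfsg.Agent.Nodes.WittAll
open Cfsg.Agent.TitsThree Cfsg.Agent.TitsThree.Siegel Cfsg.Agent.TitsThree.WittFrame
  Cfsg.Agent.TitsThree.WittWeyl Cfsg.Agent.TitsThree.FrameCN
open Cfsg.Agent.KFacts.RgdBorelTits Cfsg.Agent.KFacts.RgdFilt Cfsg.Agent.KFacts.RgdFiltWitt

/-- a root group datum of rank `l` generating the group -/
def HasRank (p l : ℕ) (G : Type*) [Group G] : Prop :=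
  ∃ (M : CoxeterMatrix (Fin l)) (A : Fin l → Fin l → ℤ) (h : IsCartan M A) (T : Subgroup G) (n : Fin l → G)
    (X : (Fin l → ℤ) → Subgroup G), RGD M.toCoxeterSystem h p T n X ∧
    Finite M.Group ∧ Nodes.RGDLib.G1 M.toCoxeterSystem h X = ⊤

theorem HasRank.isSimple {p l : ℕ} [Fact p.Prime] {G : Type*} [Group G] [Finite G] [IsSimpleGroup G] (hl : 2 ≤ l)
    (hG : HasRank p l G) (hsat : ∀ S : Sylow p G, (groupFusionSystem (S : Subgroup G)).IsSaturated p) (S : Sylow p G) :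
    (groupFusionSystem (S : Subgroup G)).IsSimple p := by
  obtain ⟨M, A, h, T, n, X, R, hW, hX⟩ := hG
  have : Nontrivial (Fin l) := Fin.nontrivial_iff_two_le.2 hl
  refine Simp.isSimple R ?_ hX hsat S
  by_contra hno
  push Not at hno
  -- a commutative simple group is generated by each root group
  let i : Fin l := ⟨0, by omega⟩
  have h1 : (X (sr i)).Normal := ⟨fun x hx g => by rw [hno g x, mul_assoc, mul_inv_cancel, mul_one]; exact hx⟩
  rcases h1.eq_bot_or_eq_top with h2 | h2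
  · exact Nodes.Bruhat.X_ne_bot R (isRoot_sr _ _ i) h2
  · apply R.notp i
    have h3 : X (sr i) ⊔ X (-sr i) = X (sr i) := by rw [h2, top_sup_eq]
    rw [h3]
    exact R.pgrp i

section TypeC

open Cfsg.Agent.Nodes.TypeC

variable {F : Type*} [Field F] {V : Type*} [AddCommGroup V] [Module F V] {H : HForm F V} {n : ℕ}
  {Fr : Frame H (Fin n)} {K : Type*} [Group K] (M : Model Fr K) {p : ℕ}

theorem hasRank_C (hA : AmbT Fr p M.I) [Finite V] [Fact p.Prime] [CharP F p] {p0 : Fr.Adm} (hp0 : p0.c ≠ 0)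
    (hn : 0 < n) : HasRank p n K := by
  have : Finite (V ≃ₗ[F] V) := Finite.of_injective (fun g : V ≃ₗ[F] V => (g : V → V)) DFunLike.coe_injective
  exact ⟨CoxeterMatrix.B n, A n, isCartan n, _, _, _, rgdC_model M hA hp0 _,
    finite_W (CoxeterMatrix.B n).toCoxeterSystem, Nodes.WittModel.G1_eq_top _ hn _⟩

end TypeC

theorem hasRank_PSL {F : Type*} [Field F] [Finite F] (n : ℕ) {p : ℕ} [Fact p.Prime] [CharP F p] :
    HasRank p n (Matrix.ProjectiveSpecialLinearGroup (Fin (n + 1)) F) := by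
  have hW : Finite (Cfsg.Agent.LieRecognition.BNCox.cA n).Group :=
    Nodes.RootsA.finite_W (Cfsg.Agent.LieRecognition.BNCox.cA n).toCoxeterSystem (Nodes.RootsA.isCartan n)
  exact ⟨_, _, Nodes.RootsA.isCartan n, _, _, _, Nodes.RGDTypeA.rgd_psl _ _, hW, Nodes.RGDTypeA.G1_psl_eq_top _ _⟩

open Cfsg.Agent.Nodes.WittU Cfsg.Agent.Nodes.WittInst

theorem hasRank_PSU {F : Type*} [Field F] [Fintype F] {q N m : ℕ} (hF : Fintype.card F = q ^ 2) (hN : 3 ≤ N)
    (hm : N = 2 * m ∨ N = 2 * m + 1) {p : ℕ}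
    [Fact p.Prime] [CharP F p] : HasRank p m (PSU N F q) := by
  obtain ⟨W, -⟩ := exists_wframe hF hm
  obtain ⟨p0, hp0, -⟩ := exists_adm hF W
  exact hasRank_C (KInstU.model hF hN W) (AmbT.of_amb (amb_U hF W) p) hp0 (by omega)

theorem hasRank_PSp {F : Type*} [Field F] [Finite F] {m : ℕ} (hm : 1 ≤ m) {p : ℕ}
    [Fact p.Prime] [CharP F p] : HasRank p m (PSp m F) :=
  hasRank_C (KInstSp.model m F) (AmbT.of_amb amb_Sp p) (p0 := SpIdent.adm 1) one_ne_zero hm

end Cfsg.Agent.H763.ClassSimple
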